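import Mathlib
import Cfsg.Agent.Lib.FS.Defs
import Cfsg.Agent.Lib.Tits.Root
import Cfsg.Agent.Lib.SPL.Bas

/-! The generalized polygon of a building of rank two (blueprint/FSM, package Br). -/

set_option autoImplicit false
set_option linter.unusedSectionVars false

namespace FSM.Br

open H63.St Cfsg Tits MulAction FS H11.SPL

/-- the type of the wall between the chambers `j` and `j + 1` -/
def ty (j : ℤ) : Fin 2 := if j % 2 = 0 then 0 else 1

theorem ty_eq {i j : ℤ} : ty i = ty j ↔ i % 2 = j % 2 := by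
  unfold ty
  split_ifs with a b b
  · simp [a, b]
  · simp only [Fin.zero_eq_one_iff]; omega
  · simp only [Fin.one_eq_zero_iff]; omega
  · simp only [true_iff]; omega

theorem ty_ne (j : ℤ) : ty (j + 1) ≠ ty j := fun e => by
  have := ty_eq.1 e
  omega

theorem two_ne {i j k : Fin 2} (a : i ≠ k) (b : j ≠ k) : i = j := by
  revert i j k; decide

theorem ty_cases (i : Fin 2) (j : ℤ) : i = ty j ∨ i = ty (j + 1) := by
  by_cases h : i = ty j
  exacts [Or.inl h, Or.inr (two_ne h (ty_ne j))]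

theorem exists_ty (i : Fin 2) : ∃ s, ty s = i := (ty_cases i 0).elim (fun e => ⟨_, e.symm⟩) fun e => ⟨_, e.symm⟩

/-- the elements of the Weyl group in cyclic order -/
def om (n : ℕ) (j : ℤ) : Equiv.Perm (ZMod (2 * n)) :=
  if j % 2 = 0 then Equiv.addRight (j : ZMod (2 * n)) else Equiv.subLeft ((n : ZMod (2 * n)) + 1 + j)

section dih

variable {n : ℕ} (hn : Ok n)

theorem om_zero : om n 0 = 1 := by
  ext r; simp [om]

theorem om_succ (j : ℤ) : om n (j + 1) = om n j * (Dih hn).σ (ty j) := by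
  ext r
  by_cases h : j % 2 = 0
  · rw [om, om, ty, if_pos h, if_pos h, if_neg (by omega), Equiv.Perm.mul_apply, σ0]
    simp only [Equiv.subLeft_apply, Equiv.coe_addRight]
    push_cast; ring
  · rw [om, om, ty, if_neg h, if_neg h, if_pos (by omega), Equiv.Perm.mul_apply, σ1]
    simp only [Equiv.subLeft_apply, Equiv.coe_addRight]
    push_cast; ring

theorem om_pred (j : ℤ) : om n (j - 1) = om n j * (Dih hn).σ (ty (j + 1)) := by
  have := om_succ hn (j - 1)
  rw [sub_add_cancel] at this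
  rw [this, ty_eq.2 (show (j + 1) % 2 = (j - 1) % 2 by omega), Geo.mul_σσ]

theorem om_mem (j : ℤ) : om n j ∈ (Dih hn).W := by
  induction j with
  | zero => rw [om_zero]; exact one_mem _
  | succ j ih => rw [om_succ hn]; exact mul_mem ih ((Dih hn).σ_mem_W _)
  | pred j ih => rw [om_pred hn]; exact mul_mem ih ((Dih hn).σ_mem_W _)

theorem W_ind {P : Equiv.Perm (ZMod (2 * n)) → Prop} (h0 : P 1)
    (hs : ∀ w i, P w → P (w * (Dih hn).σ i)) {w : Equiv.Perm (ZMod (2 * n))} (hw : w ∈ (Dih hn).W) : P w := by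
  induction hw using Subgroup.closure_induction_right with
  | one => exact h0
  | mul_right x _ y hy ih => obtain ⟨i, rfl⟩ := hy; exact hs x i ih
  | mul_inv_cancel x _ y hy ih => obtain ⟨i, rfl⟩ := hy; rw [Roots.σ_inv]; exact hs x i ih

theorem exists_om {w : Equiv.Perm (ZMod (2 * n))} (hw : w ∈ (Dih hn).W) : ∃ j, w = om n j := by
  refine W_ind hn (P := fun w => ∃ j, w = om n j) ⟨0, om_zero.symm⟩ ?_ hw
  rintro _ i ⟨j, rfl⟩
  rcases ty_cases i j with rfl | rfl
  exacts [⟨_, (om_succ hn j).symm⟩, ⟨_, (om_pred hn j).symm⟩]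

theorem cast_eq {i j : ℤ} : (i : ZMod (2 * n)) = j ↔ (2 * n : ℤ) ∣ j - i := by
  rw [ZMod.intCast_eq_intCast_iff_dvd_sub]; push_cast; rfl

theorem om_congr {i j : ℤ} (h : (2 * n : ℤ) ∣ j - i) : om n i = om n j := by
  have e : i % 2 = j % 2 := by
    obtain ⟨k, hk⟩ := h
    rw [mul_assoc] at hk
    omega
  rw [om, om, cast_eq.2 h, e]

theorem pos_om (j : ℤ) (r : ZMod (2 * n)) : (Dih hn).Pos ((om n j)⁻¹ r) ↔ (Dih hn).Pos (r - j) := by
  have k : ∀ t : ZMod (2 * n), (Dih hn).Pos (n + 1 - t) ↔ (Dih hn).Pos t := by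
    rcases hn with rfl | rfl | rfl | rfl <;> decide
  by_cases h : j % 2 = 0
  · have : (om n j)⁻¹ r = r - j := by
      rw [Equiv.Perm.inv_eq_iff_eq, om, if_pos h]; simp
    rw [this]
  · have : (om n j)⁻¹ r = n + 1 - (r - j) := by
      rw [Equiv.Perm.inv_eq_iff_eq, om, if_neg h, Equiv.subLeft_apply]; ring
    rw [this, k]

theorem pos_cast (k : ℤ) : (Dih hn).Pos (k : ZMod (2 * n)) ↔ 1 ≤ k % (2 * n) ∧ k % (2 * n) ≤ n := by
  have : NeZero (2 * n) := ⟨by omega⟩
  have e := ZMod.val_intCast (n := 2 * n) k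
  push_cast at e
  rw [← e]
  exact ⟨fun h => ⟨by exact_mod_cast h.1, by exact_mod_cast h.2⟩,
    fun h => ⟨by exact_mod_cast h.1, by exact_mod_cast h.2⟩⟩

theorem om_α (j : ℤ) : om n j ((Dih hn).α (ty j)) = (j + 1 : ℤ) := by
  by_cases h : j % 2 = 0
  · rw [om, ty, if_pos h, if_pos h, α0]; simp [add_comm]
  · rw [om, ty, if_neg h, if_neg h, α1, Equiv.subLeft_apply]; push_cast; ring

theorem om_α' (j : ℤ) : om n j ((Dih hn).α (ty (j + 1))) = (j + n : ℤ) := by
  by_cases h : j % 2 = 0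
  · rw [om, ty, if_pos h, if_neg (by omega), α1]; simp [add_comm]
  · rw [om, ty, if_neg h, if_pos (by omega), α0, Equiv.subLeft_apply]; push_cast; ring

include hn in
theorem om_inj {i j : ℤ} (h : om n i = om n j) : (2 * n : ℤ) ∣ j - i := by
  have k : ∀ d : ZMod (2 * n), (∀ t, (Dih hn).Pos t ↔ (Dih hn).Pos (t + d)) → d = 0 := by
    rcases hn with rfl | rfl | rfl | rfl <;> decide
  have := k (j - i) fun t => by
    have a := pos_om hn i (t + j)
    rw [h, pos_om, add_sub_cancel_right, add_sub_assoc] at a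
    exact a
  exact cast_eq.1 (sub_eq_zero.1 this).symm

theorem σ_inj {i j : Fin 2} (h : (Dih hn).σ i = (Dih hn).σ j) : i = j := by
  by_contra ne
  obtain ⟨s, rfl⟩ := exists_ty i
  obtain rfl : j = ty (s + 1) := two_ne (Ne.symm ne) (ty_ne s)
  have := om_inj hn ((om_succ hn s).trans (h ▸ (om_pred hn s).symm))
  have := Int.le_of_dvd (by omega) (dvd_neg.2 this)
  omega

end dih

variable {n : ℕ} {hn : Ok n} {G X : Type*} [Group G] [MulAction G X] (D : Bd (Dih hn) G X)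

/-- two chambers on the same panel -/
def st : Setoid (Fin 2 × X) where
  r p q := p.1 = q.1 ∧ q.2 ∈ D.Pn p.2 p.1
  iseqv := ⟨fun _ => ⟨rfl, Or.inl rfl⟩, fun h => ⟨h.1.symm, h.1 ▸ D.geo_Pn_symm h.2⟩,
    fun h h' => ⟨h.1.trans h'.1, D.geo_Pn_trans h.2 (h.1 ▸ h'.2)⟩⟩

/-- the panels -/
def Vx : Type _ := Quotient (st D)

/-- the `i`-panel of `c` -/
def vx (i : Fin 2) (c : X) : Vx D := Quotient.mk (st D) (i, c)

instance [Finite X] : Finite (Vx D) := inferInstanceAs (Finite (Quotient _))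

theorem smul_Pn (g : G) {c d : X} {i : Fin 2} (h : d ∈ D.Pn c i) : g • d ∈ D.Pn (g • c) i :=
  h.imp (congrArg _) fun e => (D.smul g c d).trans e

instance : MulAction G (Vx D) where
  smul g := Quotient.map (sa := st D) (sb := st D) (fun p => (p.1, g • p.2)) fun _ _ h => ⟨h.1, smul_Pn D g h.2⟩
  one_smul v := by
    obtain ⟨p⟩ := v
    exact congrArg (fun c => vx D p.1 c) (one_smul G p.2)
  mul_smul g g' v := by
    obtain ⟨p⟩ := v
    exact congrArg (fun c => vx D p.1 c) (mul_smul g g' p.2)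

/-- incidence -/
def Adj (a b : Vx D) : Prop := ∃ i j c, i ≠ j ∧ a = vx D i c ∧ b = vx D j c

variable {D}

theorem vx_eq {i j : Fin 2} {c d : X} : vx D i c = vx D j d ↔ i = j ∧ d ∈ D.Pn c i := Quotient.eq

theorem smul_vx (g : G) (i : Fin 2) (c : X) : g • vx D i c = vx D i (g • c) := rfl

theorem exists_vx (v : Vx D) : ∃ i c, v = vx D i c := by
  obtain ⟨p⟩ := v
  exact ⟨p.1, p.2, rfl⟩

theorem vx_adj {i : Fin 2} {c d : X} (h : D.δ c d = (Dih hn).σ i) : vx D i c = vx D i d :=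
  vx_eq.2 ⟨rfl, Or.inr h⟩

theorem ch_eq {i j : Fin 2} {c d : X} (ne : i ≠ j) (a : vx D i c = vx D i d) (b : vx D j c = vx D j d) :
    c = d := by
  rcases (vx_eq.1 a).2 with e | e
  · exact e.symm
  rcases (vx_eq.1 b).2 with e' | e'
  · exact e'.symm
  exact absurd (σ_inj hn (e.symm.trans e')) ne

theorem vx_ne {i j : Fin 2} {c d : X} (ne : i ≠ j) (h : D.δ c d = (Dih hn).σ i) : vx D j c ≠ vx D j d :=
  fun e => Geo.σ_ne_one i (by rw [← h, ch_eq ne (vx_adj h) e, D.geo_self])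

theorem fix_ch {i j : Fin 2} {c : X} {g : G} (ne : i ≠ j) (a : g • vx D i c = vx D i c)
    (b : g • vx D j c = vx D j c) : g • c = c := ch_eq ne a b

theorem line {x : ℤ → Vx D} (hx : Line (Adj D) x) : ∃ (s : ℤ) (e : ℤ → X),
    (∀ j, x j = vx D (ty (j + s + 1)) (e j)) ∧ (∀ j, x (j + 1) = vx D (ty (j + s)) (e j)) ∧
    ∀ (i : ℤ) (k : ℕ), k ≤ n → D.δ (e i) (e (i + k)) = (om n (i + s))⁻¹ * om n (i + k + s) := by
  choose t t' e h0 h1 h2 using hx.adj
  have h3 := fun j => vx_eq.1 ((h2 j).symm.trans (h1 (j + 1)))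
  obtain ⟨s, hs⟩ := exists_ty (t' 0)
  have up : ∀ j, t' j = ty (j + s) → t' (j + 1) = ty (j + 1 + s) := fun j h =>
    two_ne (h0 (j + 1)).symm (by rw [← (h3 j).1, h, add_right_comm]; exact ty_ne _)
  have dn : ∀ j, t' (j + 1) = ty (j + 1 + s) → t' j = ty (j + s) := fun j h =>
    two_ne ((h3 j).1 ▸ h0 (j + 1)) (by rw [h, add_right_comm]; exact (ty_ne _).symm)
  have h4 : ∀ j, t' j = ty (j + s) := fun j => by
    induction j with
    | zero => rw [zero_add, hs]
    | succ j ih => exact up _ ih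
    | pred j ih => exact dn _ (by rwa [sub_add_cancel])
  have h5 : ∀ j, t j = ty (j + s + 1) := fun j => two_ne (h0 j) (h4 j ▸ ty_ne _)
  have h6 : ∀ j, D.δ (e j) (e (j + 1)) = (Dih hn).σ (ty (j + s)) := fun j => by
    refine h4 j ▸ (h3 j).2.resolve_left fun k => hx.ne j ?_
    rw [show j + 2 = j + 1 + 1 by ring, h2, h1, k, h4, h5, add_right_comm]
  refine ⟨s, e, fun j => h5 j ▸ h1 j, fun j => h4 j ▸ h2 j, fun i k hk => ?_⟩
  induction k with
  | zero => simp [D.geo_self]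
  | succ k ih =>
    have ih := ih (by omega)
    have := D.geo_step (x := e i) (h6 (i + k)) (by
      rw [ih, Equiv.Perm.mul_apply, om_α, pos_om, ← Int.cast_sub, pos_cast,
        Int.emod_eq_of_lt (by omega) (by omega)]
      omega)
    rw [ih, mul_assoc, ← om_succ] at this
    push_cast
    rw [← add_assoc, this, add_right_comm]

theorem girth {x : ℤ → Vx D} (hx : Line (Adj D) x) (k : ℕ) (k0 : 0 < k) (hk : k < 2 * n) : x 0 ≠ x k := by
  intro h
  obtain ⟨s, e, h1, h2, h3⟩ := line hx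
  have h4 := h2 (k - 1)
  rw [sub_add_cancel, ← h, h1] at h4
  obtain ⟨h5, h6⟩ := vx_eq.1 h4
  rw [ty_eq] at h5
  obtain ⟨m, rfl⟩ : ∃ m, k = 2 * m + 2 := ⟨k / 2 - 1, by omega⟩
  have a1 := h3 0 (m + 1) (by omega)
  have a2 := h3 (0 + (m + 1 : ℕ)) m (by omega)
  rw [show 0 + ((m + 1 : ℕ) : ℤ) + m = (2 * m + 2 : ℕ) - 1 by push_cast; ring] at a2
  have a3 := D.geo_right (e (0 + (m + 1 : ℕ))) h6
  rw [a2, D.symm, a1, mul_inv_rev, inv_inv, mul_assoc, ← om_pred, mul_right_inj, mul_right_inj] at a3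
  rcases a3 with a | a
  · have := Int.le_of_dvd (by omega) (om_inj hn a.symm)
    omega
  · have := Int.le_of_dvd (by omega) (om_inj hn a.symm)
    omega

variable (D) in
/-- the standard apartment -/
def sx (s : ℤ) (j : ℤ) : Vx D := vx D (ty (j + s + 1)) (D.a ((om n s)⁻¹ * om n (j + s)))

theorem sx_succ (s j : ℤ) : sx D s (j + 1) = vx D (ty (j + s)) (D.a ((om n s)⁻¹ * om n (j + s))) := by
  have := fin hn
  rw [sx, add_right_comm j, om_succ hn, ← mul_assoc, ty_eq.2 (show (j + s + 1 + 1) % 2 = (j + s) % 2 by omega)]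
  exact (vx_adj (D.a_mem_Nb (mul_mem (inv_mem (om_mem hn _)) (om_mem hn _)) _)).symm

theorem sx_apt (s : ℤ) : Apt (Adj D) n (sx D s) := by
  have := fin hn
  refine ⟨⟨fun j => ⟨_, _, _, ty_ne _, rfl, sx_succ s j⟩, fun j => ?_⟩, fun j => ?_⟩
  · rw [show j + 2 = j + 1 + 1 by ring, sx_succ, sx, add_right_comm j 1 s, om_succ hn, ← mul_assoc]
    exact vx_ne (ty_ne _).symm (D.a_mem_Nb (mul_mem (inv_mem (om_mem hn _)) (om_mem hn _)) _)
  · rw [sx, sx, om_congr (i := j + s) (j := j + 2 * n + s) ⟨1, by ring⟩,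
      ty_eq.2 (show (j + 2 * n + s + 1) % 2 = (j + s + 1) % 2 by omega)]

theorem exists_smul (c : X) : ∃ g : G, g • D.a 1 = c := by
  obtain ⟨g, h, -⟩ := D.tr (D.a 1) (D.a 1) c c (by rw [D.geo_self, D.geo_self])
  exact ⟨g, h⟩

theorem adj_smul (g : G) {a b : Vx D} (h : Adj D a b) : Adj D (g • a) (g • b) := by
  obtain ⟨i, j, c, ne, rfl, rfl⟩ := h
  exact ⟨i, j, g • c, ne, rfl, rfl⟩

theorem geo : Geo (Adj D) n where
  symm := fun _ _ ⟨i, j, c, ne, a, b⟩ => ⟨j, i, c, ne.symm, b, a⟩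
  three := by omega
  thick a b c := by
    obtain ⟨i, e, rfl⟩ := exists_vx a
    obtain ⟨y, z, hy, hz, ne⟩ := D.thick e i
    obtain ⟨j, hj⟩ := exists_ne i
    have n1 := vx_ne hj.symm hy
    have n2 := vx_ne hj.symm hz
    have n3 : vx D j y ≠ vx D j z := fun k => ne (ch_eq hj k ((vx_adj hy).symm.trans (vx_adj hz)))
    have c1 : Adj D (vx D i e) (vx D j e) := ⟨i, j, e, hj.symm, rfl, rfl⟩
    have c2 : Adj D (vx D i e) (vx D j y) := ⟨i, j, y, hj.symm, vx_adj hy, rfl⟩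
    have c3 : Adj D (vx D i e) (vx D j z) := ⟨i, j, z, hj.symm, vx_adj hz, rfl⟩
    generalize vx D j e = u, vx D j y = v, vx D j z = w at n1 n2 n3 c1 c2 c3
    by_cases e1 : u ≠ b ∧ u ≠ c
    · exact ⟨u, c1, e1⟩
    by_cases e2 : v ≠ b ∧ v ≠ c
    · exact ⟨v, c2, e2⟩
    refine ⟨w, c3, ?_⟩
    simp only [not_and_or, not_not] at e1 e2
    rcases e1 with rfl | rfl <;> rcases e2 with rfl | rfl
    exacts [absurd rfl n1, ⟨n2.symm, n3.symm⟩, ⟨n3.symm, n2.symm⟩, absurd rfl n1]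
  girth x hx := girth hx
  apt := by
    rintro _ _ ⟨i, j, c, ne, rfl, rfl⟩
    obtain ⟨s, rfl⟩ := exists_ty j
    obtain rfl : i = ty (s + 1) := two_ne ne (ty_ne s)
    obtain ⟨g, rfl⟩ := exists_smul (D := D) c
    have hx := sx_apt (D := D) s
    refine ⟨fun k => g • sx D s k, ⟨⟨fun k => adj_smul g (hx.adj k), fun k e => hx.ne k (smul_left_cancel g e)⟩,
      fun k => congrArg _ (hx.per k)⟩, ?_, ?_⟩
    · simp only [sx, zero_add, inv_mul_cancel, smul_vx]
    · have := sx_succ (D := D) s 0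
      simp only [zero_add, inv_mul_cancel] at this
      simp only [this, smul_vx]
  conn S hS := by
    rintro ⟨a, ha⟩
    have A : ∀ i c, vx D i c ∈ S → ∀ j, vx D j c ∈ S := fun i c hc j => by
      by_cases e : i = j
      exacts [e ▸ hc, hS _ hc _ ⟨i, j, c, e, rfl, rfl⟩]
    obtain ⟨i, c, rfl⟩ := exists_vx a
    refine Set.eq_univ_of_forall fun v => ?_
    obtain ⟨j, d, rfl⟩ := exists_vx v
    refine W_ind hn (P := fun w => ∀ d, D.δ c d = w → ∀ j, vx D j d ∈ S) (fun d e => ?_)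
      (fun w k ih d e => ?_) (D.mem c d) d rfl j
    · exact (D.eq_one _ _).1 e ▸ A i c ha
    · obtain ⟨z, h1, h2⟩ := D.ex c d k
      exact A k d (vx_adj h1 ▸ ih z (by rw [h2, e, Geo.mul_σσ]) k)

theorem spl_smul {c : X} (h : FS.Spl G c) (g : G) : FS.Spl G (g • c) := by
  obtain ⟨U, h1, h2, h3, h4⟩ := h
  have m : ∀ k, k ∈ U.map (MulAut.conj g).toMonoidHom ↔ g⁻¹ * k * g ∈ U := fun k => by
    rw [Subgroup.mem_map_equiv]; simp
  have m' : ∀ k : G, k ∈ stabilizer G (g • c) ↔ g⁻¹ * k * g ∈ stabilizer G c := fun k => by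
    rw [mem_stabilizer_iff, mem_stabilizer_iff, mul_smul, mul_smul, inv_smul_eq_iff]
  refine ⟨U.map (MulAut.conj g).toMonoidHom, fun k hk => (m' k).2 (h1 ((m k).1 hk)), fun k hk l => ?_,
    Group.nilpotent_of_mulEquiv ((MulAut.conj g).subgroupMap U), fun b hb x => ?_⟩
  · exact (m l).trans (((h2 ((m' k).1 hk)) _).trans (Iff.trans (by simp [mul_assoc]) (m _).symm))
  · obtain ⟨u, hu, e⟩ := h4 _ ((m' b).1 hb) (g⁻¹ • x)
    exact ⟨g * u * g⁻¹, ⟨u, hu, rfl⟩, by rw [mul_smul, mul_smul, e, mul_smul, mul_smul, smul_inv_smul, smul_inv_smul]⟩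

theorem pol (h : FS.Spl G (D.a 1)) : Pol G (Adj D) n where
  toGeo := geo
  smul g _ _ := adj_smul g
  split := by
    rintro _ _ ⟨i, j, c, ne, rfl, rfl⟩
    obtain ⟨g, rfl⟩ := exists_smul (D := D) c
    obtain ⟨U, h1, h2, h3, h4⟩ := spl_smul h g
    generalize g • D.a 1 = c at *
    have eS : St G (vx D i c) (vx D j c) = stabilizer G c := Subgroup.ext fun k =>
      ⟨fun hk => fix_ch ne hk.1 hk.2, fun hk => ⟨congrArg (vx D i) hk, congrArg (vx D j) hk⟩⟩
    refine ⟨U, eS ▸ h1, eS ▸ h2, h3, fun y z hy hz y0 y1 z0 z1 => ?_⟩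
    obtain ⟨s, rfl⟩ := exists_ty j
    have key : ∀ y, Line (Adj D) y → y 0 = vx D i c → y 1 = vx D (ty s) c → ∃ d,
        D.δ c d = (om n s)⁻¹ * om n (n + s) ∧ y n = vx D (ty (n + s + 1)) d ∧ y (n + 1) = vx D (ty (n + s)) d := by
      intro y hy y0 y1
      obtain ⟨s', e, a1, a2, a3⟩ := line hy
      have b1 := y0.symm.trans (a1 0)
      have b2 := y1.symm.trans (by simpa using a2 0)
      have b3 := ty_eq.1 (vx_eq.1 b2).1
      obtain rfl : c = e 0 := ch_eq ne (b1.trans (by rw [← (vx_eq.1 b1).1])) (b2.trans (by rw [← (vx_eq.1 b2).1]))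
      refine ⟨e n, ?_, (a1 n).trans (by rw [ty_eq.2 (show (n + s' + 1) % 2 = (n + s + 1) % 2 by omega)]),
        (a2 n).trans (by rw [ty_eq.2 (show (n + s') % 2 = (n + s) % 2 by omega)])⟩
      have a4 := a3 0 n le_rfl
      simp only [zero_add] at a4
      rw [a4]
      have q : ∀ k : ℕ, (om n s')⁻¹ * om n (k + s') = (om n s)⁻¹ * om n (k + s) := fun k => by
        induction k with
        | zero => simp
        | succ k ih =>
          push_cast
          rw [add_right_comm, add_right_comm _ _ s, om_succ hn, om_succ hn, ← mul_assoc, ← mul_assoc, ih,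
            ty_eq.2 (show (k + s') % 2 = (k + s) % 2 by omega)]
      exact q n
    obtain ⟨d, d1, d2, d3⟩ := key y hy y0 y1
    obtain ⟨d', d1', d2', d3'⟩ := key z hz z0 z1
    obtain ⟨b, b1, b2⟩ := D.tr c d c d' (d1.trans d1'.symm)
    obtain ⟨u, hu, k⟩ := h4 b b1 d
    exact ⟨u, hu, by rw [d2, d2', smul_vx, k, b2], by rw [d3, d3', smul_vx, k, b2]⟩
  faith g hg := D.faith g fun c => fix_ch (show (0 : Fin 2) ≠ 1 by decide) (hg _) (hg _)

end FSM.Br
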