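import Cfsg.Agent.Lib.SPL.Bas
import Cfsg.Agent.Lib.Tits.GQ1

set_option autoImplicit false

namespace FSM

open MulAction Subgroup Cfsg H11.SPL

namespace Q1

variable {G V : Type*} [Group G] [MulAction G V] {adj : V → V → Prop} {n : ℕ}

/-- any two vertices are joined by a path of length at most `n` -/
theorem path (h : Pol0 G adj n) (p v : V) :
    ∃ x, Line adj x ∧ x 0 = p ∧ ∃ k : ℕ, k ≤ n ∧ x k = v := by
  have h3 := h.three
  have := h.conn {v | ∃ x, Line adj x ∧ x 0 = p ∧ ∃ k : ℕ, k ≤ n ∧ x k = v} ?_ ?_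
  · exact (this.symm ▸ Set.mem_univ v :
      v ∈ {v | ∃ x, Line adj x ∧ x 0 = p ∧ ∃ k : ℕ, k ≤ n ∧ x k = v})
  · rintro _ ⟨x, hx, x0, k, hk, rfl⟩ w hw
    by_cases e : w = x (k - 1)
    · rcases Nat.eq_zero_or_pos k with rfl | k0
      · exact ⟨_, h.geo.rev hx 0, by simpa using x0, 1, by omega, by simpa using e.symm⟩
      · exact ⟨x, hx, x0, k - 1, by omega, by rw [e]; congr 1; omega⟩
    obtain ⟨y, hy, e1, e2⟩ := h.geo.ext hx k hw e
    rcases Nat.lt_or_ge k n with k1 | k1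
    · exact ⟨y, hy, (e1 0 (by omega)).trans x0, k + 1, k1, by push_cast; exact e2⟩
    obtain rfl : k = n := by omega
    obtain ⟨z, hz, e3⟩ := h.close hy 0
    refine ⟨_, h.geo.rev hz.line 0, ?_, k - 1, by omega, ?_⟩
    · simp only [sub_zero]
      rw [e3 0 le_rfl (by omega), e1 0 (by omega), x0]
    · rw [← e2, ← e3 (k + 1) (by omega) (by omega)]
      exact (hz.per' (by omega)).symm
  · obtain ⟨b, hb, -, -⟩ := h.thick p p p
    obtain ⟨x, hx, x0, -⟩ := h.apt _ _ hb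
    exact ⟨p, x, hx.line, x0, 0, by omega, x0⟩

theorem step (h : Geo adj n) {k : ℤ} (hk : 0 ≤ k) {p a b c : V}
    (e : ∃ x, Line adj x ∧ x 0 = p ∧ x k = a ∧ x (k + 1) = b) (hc : adj b c) (ne : c ≠ a) :
    ∃ x, Line adj x ∧ x 0 = p ∧ x (k + 1) = b ∧ x (k + 1 + 1) = c := by
  obtain ⟨x, hx, rfl, rfl, rfl⟩ := e
  obtain ⟨y, hy, e1, e2⟩ := h.ext hx (k + 1) hc (by rwa [add_sub_cancel_right])
  exact ⟨y, hy, e1 0 (by omega), e1 _ le_rfl, e2⟩

theorem start (h : Geo adj n) {a b : V} (hb : adj a b) :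
    ∃ x, Line adj x ∧ x 0 = a ∧ x 0 = a ∧ x (0 + 1) = b :=
  let ⟨x, hx, x0, x1⟩ := h.apt _ _ hb
  ⟨x, hx.line, x0, x0, x1⟩

theorem no4 (h : Geo adj 4) {a b c d : V} (h1 : adj a b) (h2 : adj b c) (h3 : adj c d) (h4 : adj d a)
    (n1 : c ≠ a) (n2 : d ≠ b) : False := by
  obtain ⟨x, hx, x0, -, x4⟩ := step h (by omega) (step h (by omega) (step h le_rfl (start h h1) h2 n1)
    h3 n2) h4 n1.symm
  exact h.girth' hx (by omega) (by omega) (x0.trans x4.symm)

theorem no6 (h : Geo adj 4) {a b c d e f : V} (h1 : adj a b) (h2 : adj b c) (h3 : adj c d)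
    (h4 : adj d e) (h5 : adj e f) (h6 : adj f a) (n1 : c ≠ a) (n2 : d ≠ b) (n3 : e ≠ c) (n4 : f ≠ d)
    (n5 : a ≠ e) : False := by
  obtain ⟨x, hx, x0, -, x6⟩ := step h (by omega) (step h (by omega) (step h (by omega)
    (step h (by omega) (step h le_rfl (start h h1) h2 n1) h3 n2) h4 n3) h5 n4) h6 n5
  exact h.girth' hx (by omega) (by omega) (x0.trans x6.symm)

theorem types (h : Pol0 G adj n) {a b : V} (hb : adj a b) (v : V) :
    ((Nb adj v).ncard = (Nb adj a).ncard ∧ ∀ w, adj v w → (Nb adj w).ncard = (Nb adj b).ncard) ∨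
    ((Nb adj v).ncard = (Nb adj b).ncard ∧ ∀ w, adj v w → (Nb adj w).ncard = (Nb adj a).ncard) := by
  have := h.conn {v | ((Nb adj v).ncard = (Nb adj a).ncard ∧
      ∀ w, adj v w → (Nb adj w).ncard = (Nb adj b).ncard) ∨
    ((Nb adj v).ncard = (Nb adj b).ncard ∧ ∀ w, adj v w → (Nb adj w).ncard = (Nb adj a).ncard)} ?_
    ⟨a, Or.inl ⟨rfl, fun w hw => h.val_eq hb hw⟩⟩
  · exact Set.eq_univ_iff_forall.1 this v
  · rintro v (⟨h1, h2⟩ | ⟨h1, h2⟩) w hw
    · exact Or.inr ⟨h2 w hw, fun u hu => (h.val_eq (h.symm _ _ hw) hu).trans h1⟩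
    · exact Or.inl ⟨h2 w hw, fun u hu => (h.val_eq (h.symm _ _ hw) hu).trans h1⟩

theorem ncard_sub {P : V → Prop} {Δ : Set V} (h : ∀ v ∈ Δ, P v) :
    {p : {v // P v} | p.1 ∈ Δ}.ncard = Δ.ncard :=
  Set.ncard_congr (fun p _ => p.1) (fun _ hp => hp) (fun _ _ _ _ e => Subtype.ext e)
    fun v hv => ⟨⟨v, h v hv⟩, hv, rfl⟩

end Q1

variable {G V : Type*} [Group G] [MulAction G V] [Finite G] [Finite V] {adj : V → V → Prop}
  {n p : ℕ} {x : ℤ → V}

set_option linter.unusedSectionVars false in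
/-- Higman's inequality -/
theorem higman (h : Pol0 G adj 4) {a b : V} (hb : adj a b) :
    (Nb adj a).ncard - 1 ≤ ((Nb adj b).ncard - 1) ^ 2 := by
  classical
  by_cases e : (Nb adj a).ncard = (Nb adj b).ncard
  · rw [e]; exact Nat.le_self_pow (by omega) _
  have ta := (h.two a).three
  have tb := (h.two b).three
  have t1 : ∀ v w, (Nb adj v).ncard = (Nb adj a).ncard → adj v w →
      (Nb adj w).ncard = (Nb adj b).ncard := fun v w h1 h2 =>
    ((Q1.types h hb v).resolve_right fun k => e (h1.symm.trans k.1)).2 w h2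
  have t2 : ∀ v w, (Nb adj v).ncard = (Nb adj b).ncard → adj v w →
      (Nb adj w).ncard = (Nb adj a).ncard := fun v w h1 h2 =>
    ((Q1.types h hb v).resolve_left fun k => e (k.1.symm.trans h1)).2 w h2
  let P := {v // (Nb adj v).ncard = (Nb adj a).ncard}
  let L := {v // (Nb adj v).ncard = (Nb adj b).ncard}
  let I : P → L → Prop := fun p l => adj p.1 l.1
  have q : Tits.GQ.Q I ((Nb adj b).ncard - 1) ((Nb adj a).ncard - 1) := by
    refine ⟨fun l => ?_, fun p => ?_, fun p l => ?_, ?_, ?_⟩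
    · rw [Nat.sub_add_cancel (by omega), ← l.2, ← Q1.ncard_sub (Δ := Nb adj l.1) fun v hv => t2 _ v l.2 hv]
      congr 1
      ext p
      exact ⟨h.symm _ _, h.symm _ _⟩
    · rw [Nat.sub_add_cancel (by omega), ← p.2, ← Q1.ncard_sub (Δ := Nb adj p.1) fun v hv => t1 _ v p.2 hv]
      rfl
    · obtain ⟨x, hx, x0, k, hk, xk⟩ := Q1.path h p.1 l.1
      have v0 : (Nb adj (x 0)).ncard = (Nb adj a).ncard := x0 ▸ p.2
      have v1 := t1 _ _ v0 (hx.adj' (i := 0) (j := 1) rfl)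
      have v2 := t2 _ _ v1 (hx.adj' (i := 1) (j := 2) rfl)
      have v3 := t1 _ _ v2 (hx.adj' (i := 2) (j := 3) rfl)
      have v4 := t2 _ _ v3 (hx.adj' (i := 3) (j := 4) rfl)
      have hl : (Nb adj (x k)).ncard = (Nb adj b).ncard := xk ▸ l.2
      interval_cases k
      · exact absurd (v0.symm.trans hl) e
      · have : I p l := by
          have := hx.adj' (i := 0) (j := 1) rfl
          rw [x0] at this
          exact (xk ▸ this : adj p.1 l.1)
        exact ⟨p, l, this, this, this⟩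
      · exact absurd (v2.symm.trans hl) e
      · refine ⟨⟨x 2, v2⟩, ⟨x 1, v1⟩, ?_, h.symm _ _ (hx.adj' rfl), ?_⟩
        · exact (x0 ▸ hx.adj' (i := 0) (j := 1) rfl : adj p.1 (x 1))
        · exact (xk ▸ hx.adj' (i := 2) (j := 3) rfl : adj (x 2) l.1)
      · exact absurd (v4.symm.trans hl) e
    · intro p v l m h1 h2 h3 h4
      by_contra c
      rw [not_or] at c
      exact Q1.no4 h.geo h1 (h.symm _ _ h3) h4 (h.symm _ _ h2) (fun f => c.1 (Subtype.ext f.symm))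
        fun f => c.2 (Subtype.ext f.symm)
    · intro p l v m v' m' h0 h1 h2 h3 h4 h5 h6
      by_contra c
      exact Q1.no6 h.geo h1 (h.symm _ _ h2) h3 (h.symm _ _ h6) h5 (h.symm _ _ h4)
        (fun f => h0 (show adj p.1 l.1 from f ▸ h3)) (fun f => h0 (show adj p.1 l.1 from f ▸ h1))
        (fun f => c (Subtype.ext f.symm)) (fun f => h0 (show adj p.1 l.1 from f ▸ h4))
        fun f => h0 (show adj p.1 l.1 from f ▸ h6)
  obtain ⟨x, hx, x0, x1⟩ := h.apt _ _ hb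
  have hx := hx.line
  have v4 : (Nb adj (x 4)).ncard = (Nb adj a).ncard :=
    (h.val_line hx 2).trans ((h.val_line hx 0).trans (x0 ▸ rfl))
  let _ : Fintype P := Fintype.ofFinite P
  let _ : Fintype L := Fintype.ofFinite L
  refine q.higman (by omega) (by omega) (x := ⟨a, rfl⟩) (y := ⟨x 4, v4⟩) ?_
  rintro ⟨l, h1, h2⟩
  have h1 : adj (x 0) l.1 := x0 ▸ h1
  have h2 : adj (x 4) l.1 := h2
  have a0 := hx.adj' (i := 0) (j := 1) rfl
  have a1 := hx.adj' (i := 1) (j := 2) rfl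
  have a2 := hx.adj' (i := 2) (j := 3) rfl
  have a3 := hx.adj' (i := 3) (j := 4) rfl
  have n0 := (hx.ne' (i := 0) (j := 2) rfl).symm
  have n1 := (hx.ne' (i := 1) (j := 3) rfl).symm
  have n2 := (hx.ne' (i := 2) (j := 4) rfl).symm
  by_cases c : l.1 = x 3
  · exact Q1.no4 h.geo a0 a1 a2 (h.symm _ _ (c ▸ h1)) n0 n1
  · exact Q1.no6 h.geo a0 a1 a2 a3 h2 (h.symm _ _ h1) n0 n1 n2 c
      (h.geo.girth' hx (by omega) (by omega))

end FSM
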